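import Mathlib

set_option autoImplicit false

/-! Monomial matrices and diagonal subgroups. -/

namespace Cfsg.Agent.ClGeo

open Matrix

section
variable {F : Type*} [Field F] {ι : Type*} [Fintype ι] [DecidableEq ι]

/-- A matrix commuting a separating family of diagonal matrices to diagonal matrices has at most one
non-zero entry in each row. -/
theorem row_unique_of_conj (g : Matrix ι ι F)
    (h : ∀ j j' : ι, j ≠ j' → ∃ t t' : ι → F, t j ≠ t j' ∧ g * Matrix.diagonal t = Matrix.diagonal t' * g)
    (i j j' : ι) (hj : g i j ≠ 0) (hj' : g i j' ≠ 0) : j = j' := by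
  by_contra hne
  obtain ⟨t, t', htt, hg⟩ := h j j' hne
  have h1 := congrFun (congrFun hg i) j
  have h2 := congrFun (congrFun hg i) j'
  rw [Matrix.mul_diagonal, Matrix.diagonal_mul] at h1 h2
  apply htt
  have h3 : t j = t' i := mul_left_cancel₀ hj (by rw [h1, mul_comm])
  have h4 : t j' = t' i := mul_left_cancel₀ hj' (by rw [h2, mul_comm])
  rw [h3, h4]

/-- Every row of a matrix with right inverse is non-zero. -/
theorem exists_row_ne_zero (g h : Matrix ι ι F) (hgh : g * h = 1) (i : ι) : ∃ j, g i j ≠ 0 := by
  by_contra hcon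
  push Not at hcon
  have h1 := congrFun (congrFun hgh i) i
  rw [Matrix.mul_apply, Matrix.one_apply_eq, Finset.sum_eq_zero] at h1
  · exact zero_ne_one h1
  · intro j _
    rw [hcon j, zero_mul]

/-- For a monomial invertible matrix, the column map is injective. -/
theorem col_injective (g h : Matrix ι ι F) (hgh : g * h = 1) (π : ι → ι)
    (hπ : ∀ i j, g i j ≠ 0 ↔ j = π i) : Function.Injective π := by
  have hhg : h * g = 1 := mul_eq_one_comm.1 hgh
  intro i i' hii
  by_contra hne
  -- (h g) = 1 and g has rows i, i' supported on the same column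
  have hg0 : ∀ a b, b ≠ π a → g a b = 0 := by
    intro a b hb
    by_contra hcon
    exact hb ((hπ a b).1 hcon)
  have hg1 : ∀ a, g a (π a) ≠ 0 := fun a => (hπ a (π a)).2 rfl
  have h1 : ∀ a b, g a (π a) * h (π a) b = (1 : Matrix ι ι F) a b := by
    intro a b
    rw [← hgh, Matrix.mul_apply, Finset.sum_eq_single (π a)]
    · intro c _ hc
      rw [hg0 a c hc, zero_mul]
    · intro hc; exact absurd (Finset.mem_univ _) hc
  have h2 := h1 i i
  have h3 := h1 i' i
  rw [Matrix.one_apply_eq] at h2
  rw [Matrix.one_apply_ne (Ne.symm hne), ← hii] at h3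
  rcases mul_eq_zero.1 h3 with h4 | h4
  · exact hg1 i' (by rw [← hii]; exact h4)
  · rw [h4, mul_zero] at h2
    exact zero_ne_one h2

end

end Cfsg.Agent.ClGeo
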