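import Mathlib
import Cfsg.Prelude.Def_ClassicalGeometry
import Cfsg.Agent.ClGeo.Count

set_option autoImplicit false

/-! Stabilisers in `GL_n` of the standard coordinate subspaces. -/

namespace Cfsg.Agent.ClGeo

open Matrix

section
variable {F : Type*} [Field F] {n : ℕ}

/-- The coordinate subspace of the first `k` basis vectors. -/
def coordSub (F : Type*) [Field F] (n k : ℕ) : Submodule F (Fin n → F) where
  carrier := {v : Fin n → F | ∀ i : Fin n, k ≤ (i : ℕ) → v i = 0}
  add_mem' {a b} ha hb := fun i hi => by rw [Pi.add_apply, ha i hi, hb i hi, add_zero]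
  zero_mem' := fun _ _ => rfl
  smul_mem' c a ha := fun i hi => by rw [Pi.smul_apply, ha i hi, smul_zero]

theorem mem_coordSub {k : ℕ} {v : Fin n → F} :
    v ∈ coordSub F n k ↔ ∀ i : Fin n, k ≤ (i : ℕ) → v i = 0 := Iff.rfl

/-- The stabiliser of the coordinate subspace. -/
abbrev par (F : Type*) [Field F] (n k : ℕ) : Subgroup (Matrix.GeneralLinearGroup (Fin n) F) :=
  Cfsg.stabilizing (Cfsg.glToMat (Fin n) F) {v : Fin n → F | ∀ i : Fin n, k ≤ (i : ℕ) → v i = 0}

theorem mulVec_gl_injective (g : Matrix.GeneralLinearGroup (Fin n) F) :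
    Function.Injective (Matrix.mulVecLin (g : Matrix (Fin n) (Fin n) F)) := by
  intro x y hxy
  have h3 := congrArg (fun z => ((g⁻¹ : Matrix.GeneralLinearGroup (Fin n) F) : Matrix (Fin n) (Fin n) F) *ᵥ z) hxy
  simp only [Matrix.mulVecLin_apply, Matrix.mulVec_mulVec, ← Units.val_mul, inv_mul_cancel,
    Units.val_one, Matrix.one_mulVec] at h3
  exact h3

theorem gl_mul_mulVec (g h : Matrix.GeneralLinearGroup (Fin n) F) (v : Fin n → F) :
    ((g * h : Matrix.GeneralLinearGroup (Fin n) F) : Matrix (Fin n) (Fin n) F) *ᵥ v =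
      (g : Matrix (Fin n) (Fin n) F) *ᵥ ((h : Matrix (Fin n) (Fin n) F) *ᵥ v) := by
  rw [Units.val_mul, Matrix.mulVec_mulVec]

theorem mem_par_iff {k : ℕ} (g : Matrix.GeneralLinearGroup (Fin n) F) :
    g ∈ par F n k ↔ ∀ v ∈ coordSub F n k, (g : Matrix (Fin n) (Fin n) F) *ᵥ v ∈ coordSub F n k := by
  constructor
  · intro h v hv
    exact (h v).1 hv
  · intro h v
    exact mem_iff_of_map_le (Matrix.mulVecLin (g : Matrix (Fin n) (Fin n) F)) (mulVec_gl_injective g) _ h v

theorem mem_par_iff_entries {k : ℕ} (g : Matrix.GeneralLinearGroup (Fin n) F) :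
    g ∈ par F n k ↔ ∀ i j : Fin n, k ≤ (i : ℕ) → (j : ℕ) < k → (g : Matrix (Fin n) (Fin n) F) i j = 0 := by
  rw [mem_par_iff]
  constructor
  · intro h i j hi hj
    have h1 := h (Pi.single j 1) (by
      intro l hl
      rw [Pi.single_apply, if_neg]
      rintro rfl
      omega) i hi
    simpa using h1
  · intro h v hv i hi
    rw [Matrix.mulVec, dotProduct]
    apply Finset.sum_eq_zero
    intro j _
    by_cases hj : (j : ℕ) < k
    · rw [h i j hi hj, zero_mul]
    · rw [hv j (by omega), mul_zero]

/-- The elementary transvection `1 + c E_ij` as an element of `GL_n`. -/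
def elemGL (i j : Fin n) (hij : i ≠ j) (c : F) : Matrix.GeneralLinearGroup (Fin n) F where
  val := Matrix.transvection i j c
  inv := Matrix.transvection i j (-c)
  val_inv := by rw [Matrix.transvection_mul_transvection_same i j hij, add_neg_cancel, Matrix.transvection_zero]
  inv_val := by rw [Matrix.transvection_mul_transvection_same i j hij, neg_add_cancel, Matrix.transvection_zero]

theorem elemGL_mulVec (i j : Fin n) (hij : i ≠ j) (c : F) (v : Fin n → F) :
    (elemGL i j hij c : Matrix (Fin n) (Fin n) F) *ᵥ v = v + Pi.single i (c * v j) := by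
  change Matrix.transvection i j c *ᵥ v = _
  rw [Matrix.transvection, Matrix.add_mulVec, Matrix.one_mulVec]
  congr 1
  rw [Matrix.single_mulVec]
  funext l
  simp [Function.update_apply, Pi.single_apply]

/-- Diagonal invertible matrices. -/
noncomputable def diagGL (d : Fin n → F) (hd : ∀ i, d i ≠ 0) : Matrix.GeneralLinearGroup (Fin n) F where
  val := Matrix.diagonal d
  inv := Matrix.diagonal fun i => (d i)⁻¹
  val_inv := by
    rw [Matrix.diagonal_mul_diagonal, ← Matrix.diagonal_one]
    congr 1
    funext i
    exact mul_inv_cancel₀ (hd i)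
  inv_val := by
    rw [Matrix.diagonal_mul_diagonal, ← Matrix.diagonal_one]
    congr 1
    funext i
    exact inv_mul_cancel₀ (hd i)

/-- `GL_n` is generated by elementary transvections and diagonal matrices. -/
theorem gl_eq_top_of (H : Subgroup (Matrix.GeneralLinearGroup (Fin n) F))
    (h1 : ∀ (i j : Fin n) (hij : i ≠ j) (c : F), elemGL i j hij c ∈ H)
    (h2 : ∀ (d : Fin n → F) (hd : ∀ i, d i ≠ 0), diagGL d hd ∈ H) : H = ⊤ := by
  rw [eq_top_iff]
  rintro g -
  have hlist : ∀ L : List (Matrix.TransvectionStruct (Fin n) F),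
      ∃ h ∈ H, (h : Matrix (Fin n) (Fin n) F) = (L.map Matrix.TransvectionStruct.toMatrix).prod := by
    intro L
    induction L with
    | nil => exact ⟨1, H.one_mem, by simp⟩
    | cons t L ih =>
      obtain ⟨h, hh, hL⟩ := ih
      refine ⟨elemGL t.i t.j t.hij t.c * h, H.mul_mem (h1 _ _ _ _) hh, ?_⟩
      rw [List.map_cons, List.prod_cons, Units.val_mul, hL]
      rfl
  obtain ⟨L, L', D, hLD⟩ := Matrix.Pivot.exists_list_transvec_mul_diagonal_mul_list_transvec (g : Matrix (Fin n) (Fin n) F)
  obtain ⟨h, hh, hL⟩ := hlist L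
  obtain ⟨h', hh', hL'⟩ := hlist L'
  have hD : ∀ i, D i ≠ 0 := by
    have hdet : (Matrix.diagonal D).det ≠ 0 := by
      intro h0
      have h3 := congrArg Matrix.det hLD
      rw [Matrix.det_mul, Matrix.det_mul, h0, mul_zero, zero_mul] at h3
      exact g.det.ne_zero h3
    rw [Matrix.det_diagonal, Finset.prod_ne_zero_iff] at hdet
    exact fun i => hdet i (Finset.mem_univ _)
  have hg : g = h * diagGL D hD * h' := by
    apply Units.ext
    rw [Units.val_mul, Units.val_mul, hL, hL']
    exact hLD
  rw [hg]
  exact H.mul_mem (H.mul_mem hh (h2 _ _)) hh'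

/-- The stabiliser of a proper non-zero coordinate subspace is a maximal subgroup. -/
theorem isCoatom_par {k : ℕ} (hk0 : 0 < k) (hkn : k < n) : IsCoatom (par F n k) := by
  constructor
  · -- proper
    intro h
    let i0 : Fin n := ⟨k, hkn⟩
    let j0 : Fin n := ⟨0, by omega⟩
    have hij : i0 ≠ j0 := by
      intro h; have := congrArg Fin.val h; simp [i0, j0] at this; omega
    have h1 : elemGL (F := F) i0 j0 hij 1 ∈ par F n k := by rw [h]; trivial
    rw [mem_par_iff_entries] at h1
    have h2 := h1 i0 j0 le_rfl hk0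
    change Matrix.transvection i0 j0 1 i0 j0 = 0 at h2
    rw [Matrix.transvection] at h2
    simp [Matrix.one_apply_ne hij] at h2
  · intro H hH
    obtain ⟨hle, g, hgH, hgP⟩ := SetLike.lt_iff_le_and_exists.1 hH
    rw [mem_par_iff] at hgP
    push Not at hgP
    obtain ⟨w, hw, hgw⟩ := hgP
    rw [mem_coordSub] at hgw
    push Not at hgw
    obtain ⟨l, hl, hal⟩ := hgw
    set a := (g : Matrix (Fin n) (Fin n) F) *ᵥ w with ha
    -- diagonal matrices and the transvections in the parabolic
    have hdiag : ∀ (d : Fin n → F) (hd : ∀ i, d i ≠ 0), diagGL d hd ∈ H := by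
      intro d hd
      apply hle
      rw [mem_par_iff_entries]
      intro i j hi hj
      change Matrix.diagonal d i j = 0
      rw [Matrix.diagonal_apply_ne]
      rintro rfl
      omega
    have hpar : ∀ (i j : Fin n) (hij : i ≠ j) (c : F), ((i : ℕ) < k ∨ k ≤ (j : ℕ)) → elemGL i j hij c ∈ H := by
      intro i j hij c h
      apply hle
      rw [mem_par_iff]
      intro v hv
      rw [elemGL_mulVec]
      rcases h with h | h
      · refine Submodule.add_mem _ hv ?_
        intro l hl
        rw [Pi.single_apply, if_neg]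
        rintro rfl
        omega
      · rw [hv j h, mul_zero, Pi.single_zero, add_zero]
        exact hv
    -- the element moving `a` to `e_l`
    obtain ⟨p, hpH, hpa⟩ : ∃ p ∈ H, (p : Matrix (Fin n) (Fin n) F) *ᵥ a = Pi.single l 1 := by
      let P : Matrix (Fin n) (Fin n) F := 1 + Matrix.vecMulVec ((a l)⁻¹ • (Pi.single l 1 - a)) (Pi.single l 1)
      have hP : ∀ v, P *ᵥ v = v + (v l * (a l)⁻¹) • (Pi.single l 1 - a) := by
        intro v
        rw [Matrix.add_mulVec, Matrix.one_mulVec, Matrix.vecMulVec_mulVec, single_dotProduct, one_mul]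
        congr 1
        rw [mul_smul]
        simp
      have hPinj : Function.Injective (Matrix.mulVecLin P) := by
        rw [← LinearMap.ker_eq_bot, LinearMap.ker_eq_bot']
        intro v hv
        rw [Matrix.mulVecLin_apply, hP] at hv
        have h1 := congrFun hv l
        simp only [Pi.add_apply, Pi.smul_apply, Pi.sub_apply, Pi.single_eq_same, smul_eq_mul,
          Pi.zero_apply] at h1
        have h2 : v l = 0 := by
          field_simp at h1
          linear_combination h1
        rw [h2, zero_mul, zero_smul, add_zero] at hv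
        exact hv
      have hPdet : P.det ≠ 0 := by
        intro h0
        obtain ⟨v, hv0, hv⟩ := Matrix.exists_mulVec_eq_zero_iff.2 h0
        exact hv0 (hPinj (by rw [map_zero]; exact hv))
      refine ⟨Matrix.GeneralLinearGroup.mkOfDetNeZero P hPdet, ?_, ?_⟩
      · apply hle
        rw [mem_par_iff]
        intro v hv
        change P *ᵥ v ∈ _
        rw [hP, hv l hl, zero_mul, zero_smul, add_zero]
        exact hv
      · change P *ᵥ a = _
        rw [hP, mul_inv_cancel₀ hal, one_smul]
        abel
    -- the new element `g' = p g` with `g' w = e_l`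
    set g' := p * g with hg'
    have hg'H : g' ∈ H := H.mul_mem hpH hgH
    have hg'w : (g' : Matrix (Fin n) (Fin n) F) *ᵥ w = Pi.single l 1 := by
      rw [hg', gl_mul_mulVec, ← ha, hpa]
    have hlj : ∀ (j : Fin n) (hlj : l ≠ j) (c : F), (j : ℕ) < k → elemGL l j hlj c ∈ H := by
      intro j hlj c hj
      have hconj : g'⁻¹ * elemGL l j hlj c * g' ∈ H := by
        apply hle
        rw [mem_par_iff]
        intro v hv
        rw [gl_mul_mulVec, gl_mul_mulVec, elemGL_mulVec, Matrix.mulVec_add, ← gl_mul_mulVec,
          inv_mul_cancel, Units.val_one, Matrix.one_mulVec]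
        refine Submodule.add_mem _ hv ?_
        have h1 : (Pi.single l (c * ((g' : Matrix (Fin n) (Fin n) F) *ᵥ v) j) : Fin n → F) =
            (c * ((g' : Matrix (Fin n) (Fin n) F) *ᵥ v) j) • Pi.single l 1 := by
          rw [← Pi.single_smul, smul_eq_mul, mul_one]
        rw [h1, Matrix.mulVec_smul, ← hg'w, ← gl_mul_mulVec, inv_mul_cancel, Units.val_one,
          Matrix.one_mulVec]
        exact Submodule.smul_mem _ _ hw
      have h2 := H.mul_mem (H.mul_mem hg'H hconj) (H.inv_mem hg'H)
      have h3 : g' * (g'⁻¹ * elemGL l j hlj c * g') * g'⁻¹ = elemGL l j hlj c := by group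
      rwa [h3] at h2
    apply gl_eq_top_of H _ hdiag
    intro i j hij c
    by_cases hi : (i : ℕ) < k
    · exact hpar i j hij c (Or.inl hi)
    by_cases hj : k ≤ (j : ℕ)
    · exact hpar i j hij c (Or.inr hj)
    by_cases hil : i = l
    · subst hil
      exact hlj j hij c (by omega)
    · -- commutator
      have hlj' : l ≠ j := by
        rintro rfl
        omega
      have h1 := hpar i l hil c (Or.inr hl)
      have h2 := hlj j hlj' 1 (by omega)
      have h3 : elemGL i j hij c = elemGL i l hil c * elemGL l j hlj' 1 * (elemGL i l hil c)⁻¹ * (elemGL l j hlj' 1)⁻¹ := by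
        rw [eq_mul_inv_iff_mul_eq, eq_mul_inv_iff_mul_eq]
        apply Units.ext
        apply Matrix.ext_of_mulVec_single
        intro s
        rw [gl_mul_mulVec, gl_mul_mulVec, gl_mul_mulVec]
        simp only [elemGL_mulVec]
        funext t
        simp only [Pi.add_apply, Pi.single_apply, mul_ite, mul_one, mul_zero]
        have e1 : (l = i) = False := by simp [Ne.symm hil]
        have e2 : (j = i) = False := by simp [Ne.symm hij]
        have e3 : (j = l) = False := by simp [Ne.symm hlj']
        by_cases ht : t = i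
        · subst ht
          by_cases hs : l = s
          · subst hs; simp [hlj'.symm, hil, Ne.symm hij]
          · by_cases hs' : j = s
            · subst hs'; simp [hs, hil, Ne.symm hlj', Ne.symm hij]
            · simp [hs, hs', hil]
        · simp [ht]
          split_ifs <;> simp_all
      rw [h3]
      exact H.mul_mem (H.mul_mem (H.mul_mem h1 h2) (H.inv_mem h1)) (H.inv_mem h2)

end

end Cfsg.Agent.ClGeo
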