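import Mathlib
import Cfsg.Prelude.Def_ClassicalGeometry
import Cfsg.Agent.ClGeo.Parab

set_option autoImplicit false

/-! Stabilisers in `GL_n` of the standard coordinate subspaces: orders, invariant subspaces, duality. -/

namespace Cfsg.Agent.ClGeo

open Matrix

section
variable {F : Type*} [Field F] {n : ℕ}

/-- Coordinates on the coordinate subspace. -/
noncomputable def coordSubEquiv (F : Type*) [Field F] {n k : ℕ} (hk : k ≤ n) :
    coordSub F n k ≃ₗ[F] (Fin k → F) where
  toFun v := fun i => v.1 (Fin.castLE hk i)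
  map_add' _ _ := rfl
  map_smul' _ _ := rfl
  invFun w := ⟨fun i => if h : (i : ℕ) < k then w ⟨i, h⟩ else 0, fun i hi => dif_neg (by omega)⟩
  left_inv v := by
    apply Subtype.ext
    funext i
    by_cases h : (i : ℕ) < k
    · simp only [h, dite_true]
      rfl
    · simp only [h, dite_false]
      exact (v.2 i (by omega)).symm
  right_inv w := by
    funext i
    simp

theorem finrank_coordSub {k : ℕ} (hk : k ≤ n) : Module.finrank F (coordSub F n k) = k := by
  rw [(coordSubEquiv F hk).finrank_eq, Module.finrank_fin_fun]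

/-- Invariant subspaces of the stabiliser of a coordinate subspace. -/
theorem par_invariant {k : ℕ} (U : Submodule F (Fin n → F))
    (hU : ∀ h ∈ par F n k, ∀ u ∈ U, (h : Matrix (Fin n) (Fin n) F) *ᵥ u ∈ U) :
    U = ⊥ ∨ U = coordSub F n k ∨ U = ⊤ := by
  classical
  have hpar : ∀ (i j : Fin n) (hij : i ≠ j) (c : F), ((i : ℕ) < k ∨ k ≤ (j : ℕ)) → elemGL i j hij c ∈ par F n k := by
    intro i j hij c h
    rw [mem_par_iff]
    intro v hv
    rw [elemGL_mulVec]
    rcases h with h | h
    · refine Submodule.add_mem _ hv ?_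
      intro l hl
      rw [Pi.single_apply, if_neg]
      rintro rfl
      omega
    · rw [hv j h, mul_zero, Pi.single_zero, add_zero]
      exact hv
  -- if `u ∈ U` has `u j ≠ 0` then `e_i ∈ U` for all `i ≠ j` with `i < k` or `k ≤ j`
  have key : ∀ u ∈ U, ∀ j, u j ≠ 0 → ∀ i, i ≠ j → ((i : ℕ) < k ∨ k ≤ (j : ℕ)) →
      (Pi.single i 1 : Fin n → F) ∈ U := by
    intro u hu j huj i hij h
    have h1 := hU _ (hpar i j hij (u j)⁻¹ h) u hu
    rw [elemGL_mulVec, inv_mul_cancel₀ huj] at h1
    have h2 := U.sub_mem h1 hu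
    rwa [add_sub_cancel_left] at h2
  by_cases hUW : U ≤ coordSub F n k
  · by_cases hU0 : U = ⊥
    · exact Or.inl hU0
    · right; left
      obtain ⟨u, hu, hu0⟩ := (Submodule.ne_bot_iff U).1 hU0
      obtain ⟨j, hj⟩ : ∃ j, u j ≠ 0 := by
        by_contra hcon
        push Not at hcon
        exact hu0 (funext hcon)
      apply le_antisymm hUW
      have hei : ∀ i : Fin n, (i : ℕ) < k → i ≠ j → (Pi.single i 1 : Fin n → F) ∈ U :=
        fun i hi hij => key u hu j hj i hij (Or.inl hi)
      have hej : (Pi.single j 1 : Fin n → F) ∈ U := by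
        have h1 : u - ∑ i ∈ Finset.univ.erase j, u i • (Pi.single i 1 : Fin n → F) ∈ U := by
          refine U.sub_mem hu (U.sum_mem fun i hi => ?_)
          by_cases hik : (i : ℕ) < k
          · exact U.smul_mem _ (hei i hik (Finset.ne_of_mem_erase hi))
          · have : u i = 0 := hUW hu i (by omega)
            rw [this, zero_smul]
            exact U.zero_mem
        have h2 : u - ∑ i ∈ Finset.univ.erase j, u i • (Pi.single i 1 : Fin n → F) = u j • Pi.single j 1 := by
          have h3 : u = ∑ i, u i • (Pi.single i 1 : Fin n → F) := pi_eq_sum_univ' u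
          conv_lhs => rw [h3]
          rw [sub_eq_iff_eq_add, ← Finset.add_sum_erase _ _ (Finset.mem_univ j)]
          congr 1
          refine Finset.sum_congr rfl fun i hi => ?_
          congr 1
          simp [Finset.sum_apply, Pi.single_apply]
        rw [h2] at h1
        have h3 := U.smul_mem (u j)⁻¹ h1
        rwa [smul_smul, inv_mul_cancel₀ hj, one_smul] at h3
      intro v hv
      rw [show v = ∑ i, v i • (Pi.single i 1 : Fin n → F) from pi_eq_sum_univ' v]
      refine U.sum_mem fun i _ => ?_
      by_cases hik : (i : ℕ) < k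
      · by_cases hij : i = j
        · rw [hij]; exact U.smul_mem _ hej
        · exact U.smul_mem _ (hei i hik hij)
      · rw [hv i (by omega), zero_smul]
        exact U.zero_mem
  · right; right
    obtain ⟨u, hu, huW⟩ := SetLike.not_le_iff_exists.1 hUW
    rw [mem_coordSub] at huW
    push Not at huW
    obtain ⟨j, hjk, hj⟩ := huW
    have hei : ∀ i : Fin n, i ≠ j → (Pi.single i 1 : Fin n → F) ∈ U :=
      fun i hij => key u hu j hj i hij (Or.inr hjk)
    have hej : (Pi.single j 1 : Fin n → F) ∈ U := by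
      have h1 : u - ∑ i ∈ Finset.univ.erase j, u i • (Pi.single i 1 : Fin n → F) ∈ U := by
        refine U.sub_mem hu (U.sum_mem fun i hi => ?_)
        exact U.smul_mem _ (hei i (Finset.ne_of_mem_erase hi))
      have h2 : u - ∑ i ∈ Finset.univ.erase j, u i • (Pi.single i 1 : Fin n → F) = u j • Pi.single j 1 := by
        have h3 : u = ∑ i, u i • (Pi.single i 1 : Fin n → F) := pi_eq_sum_univ' u
        conv_lhs => rw [h3]
        rw [sub_eq_iff_eq_add, ← Finset.add_sum_erase _ _ (Finset.mem_univ j)]
        congr 1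
        refine Finset.sum_congr rfl fun i hi => ?_
        congr 1
        simp [Finset.sum_apply, Pi.single_apply]
      rw [h2] at h1
      have h3 := U.smul_mem (u j)⁻¹ h1
      rwa [smul_smul, inv_mul_cancel₀ hj, one_smul] at h3
    rw [eq_top_iff]
    intro v _
    rw [show v = ∑ i, v i • (Pi.single i 1 : Fin n → F) from pi_eq_sum_univ' v]
    refine U.sum_mem fun i _ => ?_
    by_cases hij : i = j
    · rw [hij]; exact U.smul_mem _ hej
    · exact U.smul_mem _ (hei i hij)

/-- The inverse transpose automorphism. -/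
noncomputable def invTrans (n : ℕ) (F : Type*) [Field F] :
    Matrix.GeneralLinearGroup (Fin n) F ≃* Matrix.GeneralLinearGroup (Fin n) F where
  toFun g := ⟨((g⁻¹ : Matrix.GeneralLinearGroup (Fin n) F) : Matrix (Fin n) (Fin n) F)ᵀ,
    (g : Matrix (Fin n) (Fin n) F)ᵀ, by rw [← Matrix.transpose_mul, ← Units.val_mul, mul_inv_cancel]; simp,
    by rw [← Matrix.transpose_mul, ← Units.val_mul, inv_mul_cancel]; simp⟩
  invFun g := ⟨((g⁻¹ : Matrix.GeneralLinearGroup (Fin n) F) : Matrix (Fin n) (Fin n) F)ᵀ,
    (g : Matrix (Fin n) (Fin n) F)ᵀ, by rw [← Matrix.transpose_mul, ← Units.val_mul, mul_inv_cancel]; simp,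
    by rw [← Matrix.transpose_mul, ← Units.val_mul, inv_mul_cancel]; simp⟩
  left_inv g := by
    apply Units.ext
    exact Matrix.transpose_transpose _
  right_inv g := by
    apply Units.ext
    exact Matrix.transpose_transpose _
  map_mul' g h := by
    apply Units.ext
    simp [Matrix.transpose_mul]

/-- Reversal of the coordinates. -/
noncomputable def revGL (n : ℕ) (F : Type*) [Field F] :
    Matrix.GeneralLinearGroup (Fin n) F ≃* Matrix.GeneralLinearGroup (Fin n) F :=
  Units.mapEquiv (Matrix.reindexAlgEquiv F F Fin.revPerm).toMulEquiv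

/-- The composite of inverse transpose and reversal. -/
noncomputable def dualGL (n : ℕ) (F : Type*) [Field F] :
    Matrix.GeneralLinearGroup (Fin n) F ≃* Matrix.GeneralLinearGroup (Fin n) F :=
  (invTrans n F).trans (revGL n F)

theorem dualGL_apply (g : Matrix.GeneralLinearGroup (Fin n) F) (i j : Fin n) :
    (dualGL n F g : Matrix (Fin n) (Fin n) F) i j =
      ((g⁻¹ : Matrix.GeneralLinearGroup (Fin n) F) : Matrix (Fin n) (Fin n) F) (Fin.rev j) (Fin.rev i) := rfl

theorem dualGL_dualGL (g : Matrix.GeneralLinearGroup (Fin n) F) : dualGL n F (dualGL n F g) = g := by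
  apply Units.ext
  ext i j
  rw [dualGL_apply, ← map_inv, dualGL_apply, inv_inv, Fin.rev_rev, Fin.rev_rev]

theorem dualGL_mem_par {k : ℕ} (hk : k ≤ n) (g : Matrix.GeneralLinearGroup (Fin n) F) (hg : g ∈ par F n k) :
    dualGL n F g ∈ par F n (n - k) := by
  rw [mem_par_iff_entries]
  intro i j hi hj
  rw [dualGL_apply]
  have h1 := (mem_par_iff_entries _).1 ((par F n k).inv_mem hg)
  apply h1
  · rw [Fin.val_rev]; omega
  · rw [Fin.val_rev]; omega

theorem map_dualGL_par {k : ℕ} (hk : k ≤ n) :
    (par F n k).map (dualGL n F).toMonoidHom = par F n (n - k) := by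
  apply le_antisymm
  · rintro _ ⟨g, hg, rfl⟩
    exact dualGL_mem_par hk g hg
  · intro g hg
    refine ⟨dualGL n F g, ?_, dualGL_dualGL g⟩
    have := dualGL_mem_par (Nat.sub_le n k) g hg
    rwa [Nat.sub_sub_self hk] at this

end

section count
variable {F : Type*} [Field F] [Fintype F]

/-- The block triangular element of `GL_n`. -/
noncomputable def blockGL {n k : ℕ} (hk : k ≤ n) (A : Matrix.GeneralLinearGroup (Fin k) F)
    (D : Matrix.GeneralLinearGroup (Fin (n - k)) F) (B : Matrix (Fin k) (Fin (n - k)) F) :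
    Matrix.GeneralLinearGroup (Fin n) F :=
  Matrix.GeneralLinearGroup.mkOfDetNeZero
    (Matrix.reindex (finSumFinEquiv.trans (finCongr (by omega : k + (n - k) = n)))
      (finSumFinEquiv.trans (finCongr (by omega : k + (n - k) = n)))
      (fromBlocks (A : Matrix (Fin k) (Fin k) F) B 0 (D : Matrix (Fin (n - k)) (Fin (n - k)) F))) (by
    rw [Matrix.det_reindex_self, Matrix.det_fromBlocks_zero₂₁]
    exact mul_ne_zero A.det.ne_zero D.det.ne_zero)

theorem card_par {n k : ℕ} (hk : k ≤ n) :
    Nat.card (par F n k) = Fintype.card F ^ (k * (n - k)) *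
      (∏ i : Fin k, (Fintype.card F ^ k - Fintype.card F ^ (i : ℕ))) *
      ∏ i : Fin (n - k), (Fintype.card F ^ (n - k) - Fintype.card F ^ (i : ℕ)) := by
  classical
  set e : Fin k ⊕ Fin (n - k) ≃ Fin n := finSumFinEquiv.trans (finCongr (by omega : k + (n - k) = n)) with he
  have he1 : ∀ i : Fin k, ((e (Sum.inl i) : Fin n) : ℕ) = i := fun i => by simp [he]
  have he2 : ∀ i : Fin (n - k), ((e (Sum.inr i) : Fin n) : ℕ) = k + i := fun i => by simp [he]
  have hval : ∀ (A : Matrix.GeneralLinearGroup (Fin k) F) (D : Matrix.GeneralLinearGroup (Fin (n - k)) F)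
      (B : Matrix (Fin k) (Fin (n - k)) F), (blockGL hk A D B : Matrix (Fin n) (Fin n) F) =
        Matrix.reindex e e (fromBlocks (A : Matrix (Fin k) (Fin k) F) B 0 (D : Matrix (Fin (n - k)) (Fin (n - k)) F)) :=
    fun A D B => rfl
  let f : (Matrix.GeneralLinearGroup (Fin k) F × Matrix.GeneralLinearGroup (Fin (n - k)) F) ×
      Matrix (Fin k) (Fin (n - k)) F → par F n k := fun p => ⟨blockGL hk p.1.1 p.1.2 p.2, by
    rw [mem_par_iff_entries]
    intro i j hi hj
    rw [hval, Matrix.reindex_apply, Matrix.submatrix_apply]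
    obtain ⟨i', rfl⟩ := e.surjective i
    obtain ⟨j', rfl⟩ := e.surjective j
    rw [Equiv.symm_apply_apply, Equiv.symm_apply_apply]
    rcases i' with i' | i'
    · rw [he1] at hi; omega
    · rcases j' with j' | j'
      · rw [fromBlocks_apply₂₁]; rfl
      · rw [he2] at hj; omega⟩
  have hf : Function.Bijective f := by
    constructor
    · rintro ⟨⟨A, D⟩, B⟩ ⟨⟨A', D'⟩, B'⟩ h
      have h1 := congrArg (fun x : par F n k => ((x : Matrix.GeneralLinearGroup (Fin n) F) : Matrix (Fin n) (Fin n) F)) h
      simp only [f, hval] at h1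
      have h2 := (Matrix.reindex e e).injective h1
      rw [fromBlocks_inj] at h2
      have h3 : A = A' := Units.ext h2.1
      have h4 : D = D' := Units.ext h2.2.2.2
      rw [h3, h4, h2.2.1]
    · rintro ⟨g, hg⟩
      rw [mem_par_iff_entries] at hg
      set M := Matrix.reindex e.symm e.symm (g : Matrix (Fin n) (Fin n) F) with hM
      have hC : M.toBlocks₂₁ = 0 := by
        ext i j
        rw [Matrix.toBlocks₂₁, Matrix.of_apply, hM, Matrix.reindex_apply, Matrix.submatrix_apply]
        exact hg _ _ (by rw [Equiv.symm_symm, he2]; omega) (by rw [Equiv.symm_symm, he1]; exact j.2)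
      have hdet : M.det ≠ 0 := by
        rw [hM, Matrix.det_reindex_self]
        exact g.det.ne_zero
      rw [← fromBlocks_toBlocks M, hC, Matrix.det_fromBlocks_zero₂₁] at hdet
      have hA := left_ne_zero_of_mul hdet
      have hD := right_ne_zero_of_mul hdet
      refine ⟨((Matrix.GeneralLinearGroup.mkOfDetNeZero _ hA, Matrix.GeneralLinearGroup.mkOfDetNeZero _ hD), M.toBlocks₁₂), ?_⟩
      apply Subtype.ext
      apply Units.ext
      simp only [f]
      rw [hval]
      have h5 : fromBlocks M.toBlocks₁₁ M.toBlocks₁₂ 0 M.toBlocks₂₂ = M := by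
        conv_rhs => rw [← fromBlocks_toBlocks M, hC]
      have h6 : Matrix.reindex e e (fromBlocks M.toBlocks₁₁ M.toBlocks₁₂ 0 M.toBlocks₂₂) = (g : Matrix (Fin n) (Fin n) F) := by
        rw [h5, hM]
        ext i j
        simp
      exact h6
  have hmat : Nat.card (Matrix (Fin k) (Fin (n - k)) F) = Fintype.card F ^ (k * (n - k)) := by
    change Nat.card (Fin k → Fin (n - k) → F) = _
    rw [Nat.card_fun, Nat.card_fun]
    simp only [Nat.card_eq_fintype_card, Fintype.card_fin]
    rw [← pow_mul, mul_comm]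
  rw [← Nat.card_congr (Equiv.ofBijective f hf), Nat.card_prod, Nat.card_prod, Matrix.card_GL_field,
    Matrix.card_GL_field, hmat]
  ring

end count

end Cfsg.Agent.ClGeo
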